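import Cfsg.Agent.Lib.AutPSU.Classes

/-!
The unitary matrices moved by a scalar under a field automorphism of odd order.
-/

set_option autoImplicit false

namespace Cfsg.Agent.Lib.AutPSU

open Matrix Cfsg.Agent.Lib.Forms Cfsg.Agent.Lib.Classical
open Cfsg.Agent.Lib.AutPSp (mapG)

universe u

variable {n : ℕ} {F : Type u} [Field F] [Fintype F] {q : ℕ}

theorem card_scalar_moved (hF : Fintype.card F = q ^ 2) (hn : 1 ≤ n) {σ : F ≃+* F} {r : ℕ}
    (hr : orderOf σ = r) (hr0 : 0 < r) {F₀ : Type*} [Field F₀] [Fintype F₀] {q0 : ℕ} (ι : F₀ →+* F)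
    (hι : ∀ c : F, σ c = c ↔ c ∈ Set.range ι) (hF₀ : Fintype.card F₀ = q0 ^ 2)
    (hq0 : ∀ x, ι (x ^ q0) = ι x ^ q) :
    Nat.card {g : ↥(Cfsg.GU n F q) // ∃ c : F, c ≠ 0 ∧
      ((g : GL (Fin n) F) : Matrix (Fin n) (Fin n) F).map σ =
        c • ((g : GL (Fin n) F) : Matrix (Fin n) (Fin n) F)} * (q0 + 1) =
      (q + 1) * Nat.card (Cfsg.GU n F₀ q0) := by
  classical
  have hτι : ∀ N : Matrix (Fin n) (Fin n) F₀,
      (UnitaryConj.tstar hF₀ N).map ι = UnitaryConj.tstar hF (N.map ι) :=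
    fun N => by ext i j; exact hq0 (N j i)
  have hiff : ∀ g : GL (Fin n) F₀, g ∈ Cfsg.GU n F₀ q0 ↔
      GeneralLinearGroup.map ι g ∈ Cfsg.GU n F q := fun g => by
    rw [UnitaryConj.mem_GU_iff hF₀, UnitaryConj.mem_GU_iff hF]
    show _ ↔ UnitaryConj.tstar hF ((g : Matrix (Fin n) (Fin n) F₀).map ι) *
      (g : Matrix (Fin n) (Fin n) F₀).map ι = 1
    rw [← hτι, ← Matrix.map_mul]
    refine ⟨fun h => by rw [h]; simp, fun h => Matrix.map_injective ι.injective ?_⟩
    show (_ : Matrix (Fin n) (Fin n) F₀).map ι = (1 : Matrix (Fin n) (Fin n) F₀).map ι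
    rw [h]; simp
  let lift : ↥(Cfsg.GU n F₀ q0) →* ↥(Cfsg.GU n F q) :=
    ((GeneralLinearGroup.map ι).comp (Cfsg.GU n F₀ q0).subtype).codRestrict (Cfsg.GU n F q)
      fun g => (hiff _).1 g.2
  have hcomm : ∀ (c : U1 F q) (a : ↥(Cfsg.GU n F₀ q0)), Commute (scalGU n F q c) (lift a) :=
    fun c a => Subtype.ext (by
      rw [Subgroup.coe_mul, Subgroup.coe_mul, scalGU_coe]
      exact (AutPSp.scalarG_commute (c : Fˣ) _).eq)
  let Φ : U1 F q × ↥(Cfsg.GU n F₀ q0) →* ↥(Cfsg.GU n F q) :=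
    MonoidHom.noncommCoprod (scalGU n F q) lift hcomm
  have hΦ : ∀ x, Φ x = scalGU n F q x.1 * lift x.2 := fun x => MonoidHom.noncommCoprod_apply _ _ _ x
  let P : ↥(Cfsg.GU n F q) → Prop := fun g => ∃ c : F, c ≠ 0 ∧
      ((g : GL (Fin n) F) : Matrix (Fin n) (Fin n) F).map σ =
        c • ((g : GL (Fin n) F) : Matrix (Fin n) (Fin n) F)
  have hfix : ∀ a, mapGU σ (lift a) = lift a := fun a =>
    Subtype.ext (Units.ext (Matrix.ext fun i j => (hι _).2 ⟨_, rfl⟩))
  have hrange : ∀ g, g ∈ Φ.range ↔ P g := by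
    intro g
    constructor
    · rintro ⟨⟨c, a⟩, rfl⟩
      refine ⟨σ ((c : Fˣ) : F) * ((c : Fˣ) : F)⁻¹,
        mul_ne_zero (by simp) (inv_ne_zero (c : Fˣ).ne_zero), ?_⟩
      have hval : (((scalGU n F q c * lift a : ↥(Cfsg.GU n F q)) : GL (Fin n) F) :
          Matrix (Fin n) (Fin n) F) = ((c : Fˣ) : F) •
            ((lift a : GL (Fin n) F) : Matrix (Fin n) (Fin n) F) := by
        rw [Subgroup.coe_mul, Units.val_mul, scalGU_coe]
        simp [GeneralLinearGroup.scalar, Matrix.scalar_apply, ← Matrix.smul_one_eq_diagonal]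
      rw [hΦ, hval, smul_smul, inv_mul_cancel_right₀ (c : Fˣ).ne_zero]
      ext i j
      have := congrArg (fun h : ↥(Cfsg.GU n F q) => (h : GL (Fin n) F) i j) (hfix a)
      show σ (((c : Fˣ) : F) * (lift a : GL (Fin n) F) i j) = _
      rw [map_mul]
      exact congrArg (σ ((c : Fˣ) : F) * ·) this
    · rintro ⟨c, hc0, hc⟩
      have hl : mapG σ (g : GL (Fin n) F) =
          GeneralLinearGroup.scalar (Fin n) (Units.mk0 c hc0) * (g : GL (Fin n) F) := by
        apply Units.ext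
        rw [Units.val_mul]
        refine hc.trans ?_
        simp [GeneralLinearGroup.scalar, Matrix.scalar_apply, ← Matrix.smul_one_eq_diagonal]
      obtain ⟨d, h, hh, rfl⟩ := exists_fixed_part hF hn hr hr0 ι hι hF₀ hq0 hl
      have hent : ∀ i j, ∃ a : F₀, ι a = (h : GL (Fin n) F) i j := fun i j => (hι _).1
        (congrArg (fun M : ↥(Cfsg.GU n F q) => (M : GL (Fin n) F) i j) hh)
      choose a ha using hent
      have hmap : (Matrix.of a).map ι = ((h : GL (Fin n) F) : Matrix (Fin n) (Fin n) F) :=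
        Matrix.ext ha
      have hdet : (Matrix.of a).det ≠ 0 := by
        intro h0
        have := congrArg ι h0
        rw [RingHom.map_det, map_zero] at this
        exact (GeneralLinearGroup.det (h : GL (Fin n) F)).ne_zero
          (by rw [GeneralLinearGroup.val_det_apply, ← hmap]; exact this)
      let k := GeneralLinearGroup.mkOfDetNeZero _ hdet
      have hk : k ∈ Cfsg.GU n F₀ q0 := (hiff _).2 (by
        rw [show GeneralLinearGroup.map ι k = (h : GL (Fin n) F) from Units.ext hmap]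
        exact h.2)
      refine ⟨(d, ⟨k, hk⟩), ?_⟩
      rw [hΦ]
      exact congrArg (scalGU n F q d * ·) (Subtype.ext (Units.ext hmap))
  have hker : Nat.card Φ.ker = q0 + 1 := by
    rw [← Herm.card_norm_one hF₀]
    haveI : Nonempty (Fin n) := ⟨⟨0, hn⟩⟩
    have hval : ∀ x : (powMonoidHom (q0 + 1) : F₀ˣ →* F₀ˣ).ker,
        Units.map ι.toMonoidHom (x : F₀ˣ) ∈ U1 F q := fun x => Units.ext (by
      show (ι ((x : F₀ˣ) : F₀)) ^ (q + 1) = 1
      rw [pow_succ, ← hq0, ← map_mul, ← pow_succ, ← Units.val_pow_eq_pow_val,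
        show (x : F₀ˣ) ^ (q0 + 1) = 1 from x.2, Units.val_one, map_one])
    have hsc : ∀ x : (powMonoidHom (q0 + 1) : F₀ˣ →* F₀ˣ).ker,
        (scalGU n F₀ q0 x⁻¹ : ↥(Cfsg.GU n F₀ q0)) = (scalGU n F₀ q0 x)⁻¹ := fun x => map_inv _ x
    have hlift : ∀ x : (powMonoidHom (q0 + 1) : F₀ˣ →* F₀ˣ).ker,
        lift (scalGU n F₀ q0 x) = scalGU n F q ⟨_, hval x⟩ := fun x => by
      apply Subtype.ext
      apply Units.ext
      show ((scalGU n F₀ q0 x : GL (Fin n) F₀) : Matrix (Fin n) (Fin n) F₀).map ι = _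
      rw [scalGU_coe, scalGU_coe]
      ext i j
      by_cases hij : i = j <;> simp [GeneralLinearGroup.scalar, hij]
    let j : (powMonoidHom (q0 + 1) : F₀ˣ →* F₀ˣ).ker → Φ.ker := fun x =>
      ⟨(⟨_, hval x⟩, scalGU n F₀ q0 x⁻¹), by
        rw [MonoidHom.mem_ker, hΦ, hsc, map_inv, hlift, mul_inv_cancel]⟩
    refine (Nat.card_eq_of_bijective j ⟨fun x y h => ?_, fun z => ?_⟩).symm
    · have h1 := congrArg (fun w : Φ.ker => (((w : U1 F q × ↥(Cfsg.GU n F₀ q0)).1 : U1 F q) : Fˣ)) h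
      exact Subtype.ext (Units.map_injective (f := ι.toMonoidHom) ι.injective h1)
    · obtain ⟨⟨c, a⟩, hca⟩ := z
      have hc : scalGU n F q c * lift a = 1 := by rw [← hΦ (c, a)]; exact hca
      have hla : lift a = (scalGU n F q c)⁻¹ := eq_inv_of_mul_eq_one_right hc
      obtain ⟨x0, hx0⟩ := (hι _).1 (show σ ((c : Fˣ) : F) = (c : Fˣ) by
        have h1 := hfix a
        rw [hla, map_inv, _root_.inv_inj] at h1
        have h2 := congrArg (fun h : ↥(Cfsg.GU n F q) => (h : GL (Fin n) F) ⟨0, hn⟩ ⟨0, hn⟩) h1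
        simpa [mapGU_coe, scalGU_coe, GeneralLinearGroup.scalar] using h2)
      have hx00 : x0 ≠ 0 := fun h0 => (c : Fˣ).ne_zero (by rw [← hx0, h0, map_zero])
      have hxm : Units.mk0 x0 hx00 ∈ (powMonoidHom (q0 + 1) : F₀ˣ →* F₀ˣ).ker :=
        Units.ext (ι.injective (by
          show ι (x0 ^ (q0 + 1)) = ι 1
          rw [map_one, pow_succ, map_mul, hq0, hx0, ← pow_succ, ← Units.val_pow_eq_pow_val,
            show (c : Fˣ) ^ (q + 1) = 1 from c.2, Units.val_one]))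
      refine ⟨⟨_, hxm⟩, Subtype.ext (Prod.ext (Subtype.ext (Units.ext hx0)) ?_)⟩
      show scalGU n F₀ q0 ⟨_, hxm⟩⁻¹ = a
      have hinj : Function.Injective lift := fun u v huv => Subtype.ext
        (Units.ext (Matrix.map_injective ι.injective
          (congrArg (fun h : ↥(Cfsg.GU n F q) => ((h : GL (Fin n) F) : Matrix (Fin n) (Fin n) F)) huv)))
      apply hinj
      rw [hsc, map_inv, hlift, hla]
      congr 2
      exact Subtype.ext (Units.ext hx0)
  have h1 := Φ.ker.card_mul_index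
  rw [Subgroup.index_ker, Nat.card_prod, Herm.card_norm_one hF, hker] at h1
  rw [← h1, mul_comm]
  congr 1
  exact Nat.card_congr (Equiv.subtypeEquivRight fun g => (hrange g).symm)

end Cfsg.Agent.Lib.AutPSU
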